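import Mathlib
import Cfsg.Agent.Lib.Helper74.Quad.Defs

/-!
# S2787 package [NS]

If `H` acts irreducibly on the elementary abelian `p`-group `V`, a normal subgroup of `H` all of
whose elements act on `V` with `p`-power order centralizes `V`.
-/

set_option autoImplicit false
set_option linter.unusedVariables false

namespace Cfsg.Agent.Lib.Helper79.Quad

open Cfsg.Agent.Lib.Helper74.Quad

universe u

theorem pkgNS : Cfsg.Agent.Lib.Helper74.Quad.PkgNS.{u} := by
  intro G _ _ p _ V H hV hHV hirr D hDn hD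
  -- the fixed points of `D` in `V`
  obtain ⟨W, hW⟩ : ∃ W : Subgroup G,
      W = V ⊓ Subgroup.centralizer ((D.map H.subtype : Subgroup G) : Set G) := ⟨_, rfl⟩
  have hWV : W ≤ V := hW ▸ inf_le_left
  have hHW : H ≤ Subgroup.normalizer (W : Set G) := by
    intro h hh
    -- it suffices to show `h W h⁻¹ ⊆ W` for all `h ∈ H`
    have key : ∀ h ∈ H, ∀ w ∈ W, h * w * h⁻¹ ∈ W := by
      intro h hh w hw
      rw [hW, Subgroup.mem_inf] at hw ⊢
      refine ⟨(Subgroup.mem_normalizer_iff.mp (hHV hh) w).mp hw.1, ?_⟩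
      rw [Subgroup.mem_centralizer_iff]
      rintro _ ⟨d, hd, rfl⟩
      have hd' : (⟨h, hh⟩ : ↥H)⁻¹ * d * (⟨h, hh⟩ : ↥H) ∈ D := by
        have := hDn.conj_mem d hd (⟨h, hh⟩ : ↥H)⁻¹
        simpa using this
      have hc := (Subgroup.mem_centralizer_iff.mp hw.2) (H.subtype ((⟨h, hh⟩ : ↥H)⁻¹ * d * ⟨h, hh⟩))
        ⟨_, hd', rfl⟩
      simp only [Subgroup.coe_subtype, Subgroup.coe_mul, Subgroup.coe_inv] at hc ⊢
      -- hc : h⁻¹ * d * h * w = w * (h⁻¹ * d * h)
      have : (d : G) * h * w = h * w * (h⁻¹ * d * h) := by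
        calc (d : G) * h * w = h * (h⁻¹ * d * h * w) := by group
          _ = h * (w * (h⁻¹ * d * h)) := by rw [hc]
          _ = h * w * (h⁻¹ * d * h) := by group
      calc (d : G) * (h * w * h⁻¹) = (d : G) * h * w * h⁻¹ := by group
        _ = h * w * (h⁻¹ * d * h) * h⁻¹ := by rw [this]
        _ = h * w * h⁻¹ * d := by group
    rw [Subgroup.mem_normalizer_iff]
    intro w
    constructor
    · intro hw
      exact key h hh w hw
    · intro hw
      have := key h⁻¹ (H.inv_mem hh) _ hw
      have e : h⁻¹ * (h * w * h⁻¹) * h⁻¹⁻¹ = w := by group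
      rwa [e] at this
  rcases hirr W hWV hHW with hbot | htop
  · -- `W = ⊥`: then `V = ⊥`, by the fixed point argument
    by_cases hVbot : V = ⊥
    · intro d hd
      rw [Subgroup.mem_centralizer_iff]
      intro v hv
      rw [hVbot, SetLike.mem_coe, Subgroup.mem_bot] at hv
      rw [hv]
      simp
    · exfalso
      have hnt : Nontrivial ↥V := (Subgroup.nontrivial_iff_ne_bot V).mpr hVbot
      have hVp : IsPGroup p ↥V := by
        intro v
        refine ⟨1, ?_⟩
        rw [pow_one]
        exact Subtype.ext (by simpa using hV.2 v v.2)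
      have hdvd : p ∣ Nat.card ↥V := by
        obtain ⟨n, hn0, hn⟩ := hVp.nontrivial_iff_card.mp inferInstance
        exact hn.symm ▸ dvd_pow_self _ (ne_of_gt hn0)
      obtain ⟨P, hP⟩ : ∃ P : Subgroup (MulAut ↥V), P = D.map (conjHom V H hHV) := ⟨_, rfl⟩
      have hPp : IsPGroup p ↥P := by
        rintro ⟨φ, hφ⟩
        rw [hP] at hφ
        obtain ⟨d, hd, rfl⟩ := hφ
        obtain ⟨k, hk⟩ := hD d hd
        exact ⟨k, Subtype.ext hk⟩
      have h1 : (1 : ↥V) ∈ MulAction.fixedPoints ↥P ↥V := by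
        intro φ
        exact map_one (φ : MulAut ↥V)
      obtain ⟨v, hvfix, hv1⟩ := hPp.exists_fixed_point_of_prime_dvd_card_of_fixed_point ↥V hdvd h1
      have hvW : (v : G) ∈ W := by
        rw [hW, Subgroup.mem_inf]
        refine ⟨v.2, ?_⟩
        rw [Subgroup.mem_centralizer_iff]
        rintro _ ⟨d, hd, rfl⟩
        have hmem : conjHom V H hHV d ∈ P := hP ▸ ⟨d, hd, rfl⟩
        have := hvfix ⟨_, hmem⟩
        have h2 : ((conjHom V H hHV d v : ↥V) : G) = (v : G) := congrArg Subtype.val this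
        rw [conjHom_apply] at h2
        simp only [Subgroup.coe_subtype]
        calc (d : G) * v = (d : G) * v * (d : G)⁻¹ * d := by group
          _ = v * d := by rw [h2]
      rw [hbot, Subgroup.mem_bot] at hvW
      exact hv1 (Subtype.ext hvW.symm)
  · intro d hd
    have hle : V ≤ Subgroup.centralizer ((D.map H.subtype : Subgroup G) : Set G) := by
      rw [← htop, hW]
      exact inf_le_right
    rw [Subgroup.mem_centralizer_iff]
    intro v hv
    have := (Subgroup.mem_centralizer_iff.mp (hle hv)) (d : G) ⟨d, hd, rfl⟩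
    exact this.symm

end Cfsg.Agent.Lib.Helper79.Quad
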